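import Mathlib
import Cfsg.Prelude.Def_RootSubgroups
import Cfsg.Agent.Lib.Helper31.Siegel.Defs
import Cfsg.Agent.Lib.Helper99.RootGrp2

/-!
# Project Siegel (S5072): package [SL2]

Two opposite singular lines `⟨p, r⟩`, `⟨s, t⟩` in dual bases (`B p s = 1`, `B r t = 1`,
`B p t = 0`, `B r s = 0`): the Siegel transvection groups `T p r`, `T s t` are the images of the
two unitriangular subgroups of `SL₂(F)` under an injective homomorphism.
-/

set_option autoImplicit false
open scoped Matrix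

namespace Cfsg.Agent.Lib.Helper3.Siegel

open Cfsg.Agent.Lib.Helper31.Siegel

universe u

section

variable {n : ℕ} {F : Type u} [Field F]

/-- the action of a `2 × 2` matrix on the two planes `⟨p, t⟩` and `⟨r, -s⟩` -/
def sact (p r s t : Vec n F) (M : Matrix (Fin 2) (Fin 2) F) (v : Vec n F) : Vec n F :=
  v + ((M 0 0 - 1) * B v s + M 0 1 * B v r) • p + (M 1 0 * B v s + (M 1 1 - 1) * B v r) • t
    + ((M 0 0 - 1) * B v t - M 0 1 * B v p) • r - (M 1 0 * B v t - (M 1 1 - 1) * B v p) • s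

theorem sact_def (p r s t : Vec n F) (M : Matrix (Fin 2) (Fin 2) F) (v : Vec n F) :
    sact p r s t M v =
      v + ((M 0 0 - 1) * B v s + M 0 1 * B v r) • p + (M 1 0 * B v s + (M 1 1 - 1) * B v r) • t
        + ((M 0 0 - 1) * B v t - M 0 1 * B v p) • r - (M 1 0 * B v t - (M 1 1 - 1) * B v p) • s :=
  rfl

/-- the configuration: all values of `Q` and `B` on `p, r, s, t` -/
structure SCfg (p r s t : Vec n F) : Prop where
  Qp : QF n F p = 0
  Qr : QF n F r = 0
  Qs : QF n F s = 0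
  Qt : QF n F t = 0
  pp : B p p = 0
  rr : B r r = 0
  ss : B s s = 0
  tt : B t t = 0
  pr : B p r = 0
  rp : B r p = 0
  st : B s t = 0
  ts : B t s = 0
  ps : B p s = 1
  sp : B s p = 1
  rt : B r t = 1
  tr : B t r = 1
  pt : B p t = 0
  tp : B t p = 0
  rs : B r s = 0
  sr : B s r = 0

theorem scfg_of {p r s t : Vec n F} (hpr : IsSingLine p r) (hst : IsSingLine s t)
    (hps : B p s = 1) (hrt : B r t = 1) (hpt : B p t = 0) (hrs : B r s = 0) : SCfg p r s t := by
  obtain ⟨-, hQp, hQr, hQpr⟩ := hpr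
  obtain ⟨-, hQs, hQt, hQst⟩ := hst
  have hBpr : B p r = 0 := by unfold B; rw [hQpr, hQp, hQr]; ring
  have hBst : B s t = 0 := by unfold B; rw [hQst, hQs, hQt]; ring
  refine ⟨hQp, hQr, hQs, hQt, ?_, ?_, ?_, ?_, hBpr, ?_, hBst, ?_, hps, ?_, hrt, ?_, hpt, ?_, hrs, ?_⟩
  · rw [B_self, hQp, mul_zero]
  · rw [B_self, hQr, mul_zero]
  · rw [B_self, hQs, mul_zero]
  · rw [B_self, hQt, mul_zero]
  · rw [B_comm, hBpr]
  · rw [B_comm, hBst]
  · rw [B_comm, hps]
  · rw [B_comm, hrt]
  · rw [B_comm, hpt]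
  · rw [B_comm, hrs]

variable {p r s t : Vec n F}

theorem sact_B_s (h : SCfg p r s t) (M : Matrix (Fin 2) (Fin 2) F) (v : Vec n F) :
    B (sact p r s t M v) s = M 0 0 * B v s + M 0 1 * B v r := by
  rw [sact_def]
  simp only [B_add_left, B_sub_left, B_smul_left, h.ps, h.ts, h.rs, h.ss]
  ring

theorem sact_B_r (h : SCfg p r s t) (M : Matrix (Fin 2) (Fin 2) F) (v : Vec n F) :
    B (sact p r s t M v) r = M 1 0 * B v s + M 1 1 * B v r := by
  rw [sact_def]
  simp only [B_add_left, B_sub_left, B_smul_left, h.pr, h.tr, h.rr, h.sr]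
  ring

theorem sact_B_t (h : SCfg p r s t) (M : Matrix (Fin 2) (Fin 2) F) (v : Vec n F) :
    B (sact p r s t M v) t = M 0 0 * B v t - M 0 1 * B v p := by
  rw [sact_def]
  simp only [B_add_left, B_sub_left, B_smul_left, h.pt, h.tt, h.rt, h.st]
  ring

theorem sact_B_p (h : SCfg p r s t) (M : Matrix (Fin 2) (Fin 2) F) (v : Vec n F) :
    B (sact p r s t M v) p = M 1 1 * B v p - M 1 0 * B v t := by
  rw [sact_def]
  simp only [B_add_left, B_sub_left, B_smul_left, h.pp, h.tp, h.rp, h.sp]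
  ring

theorem sact_mul (h : SCfg p r s t) (M M' : Matrix (Fin 2) (Fin 2) F) (v : Vec n F) :
    sact p r s t (M * M') v = sact p r s t M (sact p r s t M' v) := by
  rw [sact_def p r s t M (sact p r s t M' v), sact_B_s h, sact_B_r h, sact_B_t h, sact_B_p h,
    sact_def, sact_def]
  simp only [Matrix.mul_apply, Fin.sum_univ_two]
  module

theorem sact_one (v : Vec n F) : sact p r s t 1 v = v := by
  rw [sact_def]
  simp

theorem sact_add (M : Matrix (Fin 2) (Fin 2) F) (u v : Vec n F) :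
    sact p r s t M (u + v) = sact p r s t M u + sact p r s t M v := by
  simp only [sact_def, B_add_left]
  module

theorem sact_smul (M : Matrix (Fin 2) (Fin 2) F) (c : F) (v : Vec n F) :
    sact p r s t M (c • v) = c • sact p r s t M v := by
  simp only [sact_def, B_smul_left]
  module

theorem sact_Q (h : SCfg p r s t) (M : Matrix (Fin 2) (Fin 2) F)
    (hdet : M 0 0 * M 1 1 - M 0 1 * M 1 0 = 1) (v : Vec n F) :
    QF n F (sact p r s t M v) = QF n F v := by
  rw [sact_def]
  simp only [Q_add, Q_sub, Q_smul, B_add_left, B_smul_left,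
    B_smul_right, h.Qp, h.Qr, h.Qs, h.Qt, h.pt, h.pr, h.tr, h.ps, h.ts, h.rs]
  linear_combination (B v r * B v t + B v s * B v p) * hdet

/-- the linear map -/
def slin (p r s t : Vec n F) (M : Matrix (Fin 2) (Fin 2) F) : Vec n F →ₗ[F] Vec n F where
  toFun := sact p r s t M
  map_add' := sact_add M
  map_smul' c v := by
    rw [RingHom.id_apply]
    exact sact_smul M c v

theorem slin_apply (M : Matrix (Fin 2) (Fin 2) F) (v : Vec n F) :
    slin p r s t M v = sact p r s t M v := rfl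

/-- the homomorphism to matrices -/
def smatHom (h : SCfg p r s t) :
    Matrix.SpecialLinearGroup (Fin 2) F →* Matrix (Fin n ⊕ Fin n) (Fin n ⊕ Fin n) F where
  toFun g := LinearMap.toMatrix' (slin p r s t (g : Matrix (Fin 2) (Fin 2) F))
  map_one' := by
    have e : slin p r s t ((1 : Matrix.SpecialLinearGroup (Fin 2) F) : Matrix (Fin 2) (Fin 2) F) =
        LinearMap.id := by
      apply LinearMap.ext
      intro v
      rw [slin_apply, Matrix.SpecialLinearGroup.coe_one, sact_one, LinearMap.id_apply]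
    rw [e, LinearMap.toMatrix'_id]
  map_mul' g g' := by
    rw [← LinearMap.toMatrix'_comp]
    congr 1
    apply LinearMap.ext
    intro v
    rw [LinearMap.comp_apply, slin_apply, slin_apply, slin_apply, Matrix.SpecialLinearGroup.coe_mul,
      sact_mul h]

theorem smatHom_mulVec (h : SCfg p r s t) (g : Matrix.SpecialLinearGroup (Fin 2) F) (v : Vec n F) :
    smatHom h g *ᵥ v = sact p r s t (g : Matrix (Fin 2) (Fin 2) F) v := by
  show LinearMap.toMatrix' (slin p r s t (g : Matrix (Fin 2) (Fin 2) F)) *ᵥ v = _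
  rw [LinearMap.toMatrix'_mulVec, slin_apply]

theorem sdet (g : Matrix.SpecialLinearGroup (Fin 2) F) :
    (g : Matrix (Fin 2) (Fin 2) F) 0 0 * (g : Matrix (Fin 2) (Fin 2) F) 1 1 -
      (g : Matrix (Fin 2) (Fin 2) F) 0 1 * (g : Matrix (Fin 2) (Fin 2) F) 1 0 = 1 := by
  have := g.det_coe
  rw [Matrix.det_fin_two] at this
  exact this

/-- the homomorphism to the isometry group -/
def sPhi (h : SCfg p r s t) : Matrix.SpecialLinearGroup (Fin 2) F →* ↥(Iso n F) :=
  (smatHom h).toHomUnits.codRestrict (Iso n F) (fun g => by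
    intro u v
    show QF n F ((((smatHom h).toHomUnits g : (Matrix (Fin n ⊕ Fin n) (Fin n ⊕ Fin n) F)ˣ) :
      Matrix (Fin n ⊕ Fin n) (Fin n ⊕ Fin n) F) *ᵥ u) = QF n F u
    rw [MonoidHom.coe_toHomUnits, smatHom_mulVec, sact_Q h _ (sdet g)])

theorem sPhi_act (h : SCfg p r s t) (g : Matrix.SpecialLinearGroup (Fin 2) F) (v : Vec n F) :
    mat (sPhi h g) *ᵥ v = sact p r s t (g : Matrix (Fin 2) (Fin 2) F) v := by
  show (((smatHom h).toHomUnits g : (Matrix (Fin n ⊕ Fin n) (Fin n ⊕ Fin n) F)ˣ) :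
      Matrix (Fin n ⊕ Fin n) (Fin n ⊕ Fin n) F) *ᵥ v = _
  rw [MonoidHom.coe_toHomUnits, smatHom_mulVec]

theorem sPhi_injective (h : SCfg p r s t) : Function.Injective (sPhi (n := n) h) := by
  rw [injective_iff_map_eq_one]
  intro g hg
  have hv : ∀ v : Vec n F, sact p r s t (g : Matrix (Fin 2) (Fin 2) F) v = v := by
    intro v
    rw [← sPhi_act h, hg, one_act]
  have h1 := hv p
  have h2 := hv t
  have a1 := sact_B_s h (g : Matrix (Fin 2) (Fin 2) F) p
  have a2 := sact_B_r h (g : Matrix (Fin 2) (Fin 2) F) p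
  have a3 := sact_B_s h (g : Matrix (Fin 2) (Fin 2) F) t
  have a4 := sact_B_r h (g : Matrix (Fin 2) (Fin 2) F) t
  rw [h1, h.ps, h.pr] at a1 a2
  rw [h2, h.ts, h.tr] at a3 a4
  apply Subtype.ext
  ext i j
  fin_cases i <;> fin_cases j
  · show (g : Matrix (Fin 2) (Fin 2) F) 0 0 = (1 : Matrix (Fin 2) (Fin 2) F) 0 0
    rw [Matrix.one_apply_eq]
    linear_combination -a1
  · show (g : Matrix (Fin 2) (Fin 2) F) 0 1 = (1 : Matrix (Fin 2) (Fin 2) F) 0 1
    rw [Matrix.one_apply_ne (by decide)]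
    linear_combination -a3
  · show (g : Matrix (Fin 2) (Fin 2) F) 1 0 = (1 : Matrix (Fin 2) (Fin 2) F) 1 0
    rw [Matrix.one_apply_ne (by decide)]
    linear_combination -a2
  · show (g : Matrix (Fin 2) (Fin 2) F) 1 1 = (1 : Matrix (Fin 2) (Fin 2) F) 1 1
    rw [Matrix.one_apply_eq]
    linear_combination -a4

end

/-- **[SL2]** (from `PkgParam`). -/
theorem pkgSL2_of (hP : PkgParam.{u}) : PkgSL2.{u} := by
  intro n F _ p r s t hpr hst hps hrt hpt hrs
  have h := scfg_of hpr hst hps hrt hpt hrs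
  have hup : (Cfsg.upperUnipotentSL2 F).map (sPhi h) = T p r := by
    rw [Cfsg.upperUnipotentSL2, MonoidHom.map_closure]
    have e : (sPhi h) '' {g : Matrix.SpecialLinearGroup (Fin 2) F |
        (g : Matrix (Fin 2) (Fin 2) F) 1 0 = 0 ∧ (g : Matrix (Fin 2) (Fin 2) F) 0 0 = 1 ∧
          (g : Matrix (Fin 2) (Fin 2) F) 1 1 = 1} = (T p r : Set ↥(Iso n F)) := by
      ext σ
      constructor
      · rintro ⟨g, ⟨h10, h00, h11⟩, rfl⟩
        apply (hP n F p r hpr _).2
        refine ⟨(g : Matrix (Fin 2) (Fin 2) F) 0 1, fun v => ?_⟩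
        rw [sPhi_act, sact_def, h10, h00, h11]
        module
      · intro hσ
        obtain ⟨c, hc⟩ := (hP n F p r hpr σ).1 hσ
        obtain ⟨x, hx⟩ : ∃ x : Matrix.SpecialLinearGroup (Fin 2) F,
            (x : Matrix (Fin 2) (Fin 2) F) = !![1, c; 0, 1] :=
          ⟨⟨!![1, c; 0, 1], by simp [Matrix.det_fin_two]⟩, rfl⟩
        refine ⟨x, ⟨by rw [hx]; simp, by rw [hx]; simp, by rw [hx]; simp⟩, ?_⟩
        apply isSiegel_ext (c := c) ?_ hc
        intro v
        rw [sPhi_act, sact_def, hx]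
        simp only [Matrix.of_apply, Matrix.cons_val', Matrix.cons_val_zero, Matrix.cons_val_one,
          Matrix.cons_val_fin_one]
        module
    rw [e, Subgroup.closure_eq]
  have hlow : (Cfsg.lowerUnipotentSL2 F).map (sPhi h) = T s t := by
    rw [Cfsg.lowerUnipotentSL2, MonoidHom.map_closure]
    have e : (sPhi h) '' {g : Matrix.SpecialLinearGroup (Fin 2) F |
        (g : Matrix (Fin 2) (Fin 2) F) 0 1 = 0 ∧ (g : Matrix (Fin 2) (Fin 2) F) 0 0 = 1 ∧
          (g : Matrix (Fin 2) (Fin 2) F) 1 1 = 1} = (T s t : Set ↥(Iso n F)) := by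
      ext σ
      constructor
      · rintro ⟨g, ⟨h01, h00, h11⟩, rfl⟩
        apply (hP n F s t hst _).2
        refine ⟨-(g : Matrix (Fin 2) (Fin 2) F) 1 0, fun v => ?_⟩
        rw [sPhi_act, sact_def, h01, h00, h11]
        module
      · intro hσ
        obtain ⟨c, hc⟩ := (hP n F s t hst σ).1 hσ
        obtain ⟨x, hx⟩ : ∃ x : Matrix.SpecialLinearGroup (Fin 2) F,
            (x : Matrix (Fin 2) (Fin 2) F) = !![1, 0; -c, 1] :=
          ⟨⟨!![1, 0; -c, 1], by simp [Matrix.det_fin_two]⟩, rfl⟩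
        refine ⟨x, ⟨by rw [hx]; simp, by rw [hx]; simp, by rw [hx]; simp⟩, ?_⟩
        apply isSiegel_ext (c := c) ?_ hc
        intro v
        rw [sPhi_act, sact_def, hx]
        simp only [Matrix.of_apply, Matrix.cons_val', Matrix.cons_val_zero, Matrix.cons_val_one,
          Matrix.cons_val_fin_one]
        module
    rw [e, Subgroup.closure_eq]
  refine ⟨sPhi h, ?_, ?_, hup, hlow⟩
  · rw [MonoidHom.range_eq_map, ← Cfsg.Agent.Lib.Helper99.sl2_top, Subgroup.map_sup, hup, hlow]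
  · intro g hg
    rw [MonoidHom.mem_ker] at hg
    have : g = 1 := sPhi_injective h (by rw [hg, map_one])
    rw [this]
    exact one_mem _

end Cfsg.Agent.Lib.Helper3.Siegel
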